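import Cfsg.Agent.Transfer.Frobenius
import Cfsg.Agent.Transfer.Residual
import Cfsg.Agent.PGroup.Frattini
import Mathlib.GroupTheory.Rank

/-!
# Normal complements for abelian Sylow subgroups of small rank
-/

set_option autoImplicit false

namespace Cfsg.Agent.FinStruct

universe u

open Subgroup

variable {G : Type u} [Group G] [Finite G] {p : ℕ} [hp : Fact p.Prime]

/-- A `q`-power automorphism of a `p`-group of rank at most `d` is trivial if `q` divides no
`p ^ i - 1` with `1 ≤ i ≤ d`. -/
theorem mulAut_eq_one_of_rank {P : Type u} [Group P] [Finite P] (hP : IsPGroup p P) {q b d : ℕ}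
    (hq : q.Prime) (hqp : q ≠ p) (hd : Group.rank P ≤ d)
    (h : ∀ i, 1 ≤ i → i ≤ d → ¬ q ∣ p ^ i - 1) (α : MulAut P) (hα : α ^ (q ^ b) = 1) : α = 1 := by
  haveI : Fact q.Prime := ⟨hq⟩
  have hmap : (frattini P).map α.toMonoidHom = frattini P :=
    Subgroup.characteristic_iff_map_eq.1 inferInstance α
  set V := P ⧸ frattini P
  let β : MulAut V := QuotientGroup.congr (frattini P) (frattini P) α hmap
  have hβ : ∀ (i : ℕ) (x : P), (β ^ i) (QuotientGroup.mk x) = QuotientGroup.mk ((α ^ i) x) := by
    intro i
    induction i with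
    | zero => intro x; rfl
    | succ i ih => intro x; rw [pow_succ', pow_succ', MulAut.mul_apply, ih]; rfl
  have hβq : β ^ (q ^ b) = 1 := MulEquiv.ext fun v => by
    obtain ⟨x, rfl⟩ := QuotientGroup.mk_surjective v
    rw [hβ, hα]; rfl
  have hR : IsPGroup q (zpowers β) := by
    obtain ⟨j, -, hj⟩ := (Nat.dvd_prime_pow hq).1 (orderOf_dvd_of_pow_eq_one hβq)
    exact IsPGroup.of_card (n := j) (by rw [Nat.card_zpowers, hj])
  let F : Subgroup V := β.toMonoidHom.eqLocus (MonoidHom.id V)
  have hF : ∀ v, v ∈ MulAction.fixedPoints (zpowers β) V ↔ v ∈ F := by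
    refine fun v => ⟨fun hv => hv ⟨β, mem_zpowers β⟩, fun hv g => ?_⟩
    have hs : zpowers β ≤ MulAction.stabilizer (MulAut V) v := zpowers_le.2 hv
    exact hs g.2
  have hmod : Nat.card V ≡ Nat.card F [MOD q] := by
    have := hR.card_modEq_card_fixedPoints (α := V)
    rwa [Nat.card_congr (Equiv.subtypeEquivRight hF)] at this
  obtain ⟨k, hk⟩ := IsPGroup.iff_card.1 (hP.to_quotient (frattini P))
  obtain ⟨S, hS, hSg⟩ := Group.rank_spec P
  have hkd : k ≤ d := by
    have h1 := PGroup.index_frattini_le_pow_card hP hSg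
    rw [Subgroup.index_eq_card, hk, hS] at h1
    exact ((Nat.pow_le_pow_iff_right hp.1.one_lt).1 h1).trans hd
  obtain ⟨i, hi, hFi⟩ := (Nat.dvd_prime_pow hp.1).1 (hk ▸ card_subgroup_dvd_card F)
  have htop : F = ⊤ := by
    apply eq_top_of_card_eq
    rw [hFi, hk]
    by_contra hne
    have hlt : i < k := lt_of_le_of_ne hi fun he => hne (by rw [he])
    rw [hk, hFi] at hmod
    have h2 : q ∣ p ^ i * (p ^ (k - i) - 1) := by
      rw [Nat.mul_sub, ← pow_add, Nat.add_sub_cancel' hi, mul_one]
      exact (Nat.modEq_iff_dvd' (Nat.pow_le_pow_right hp.1.pos hi)).1 hmod.symm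
    rcases hq.dvd_mul.1 h2 with h3 | h3
    · exact hqp ((Nat.prime_dvd_prime_iff_eq hq hp.1).1 (hq.dvd_of_dvd_pow h3))
    · exact h (k - i) (by omega) (by omega) h3
  refine PGroup.mulAut_eq_one_of_frattini hP α ?_ fun x => ?_
  · exact (((Nat.coprime_primes hq hp.1).2 hqp).pow_left b).coprime_dvd_left
      (orderOf_dvd_of_pow_eq_one hα)
  · have hx : β (QuotientGroup.mk x) = QuotientGroup.mk x :=
      show (QuotientGroup.mk x : V) ∈ F from htop ▸ mem_top _
    rw [← QuotientGroup.eq]
    exact hx.symm

theorem hasNormalPComplement_of_rank (P : Sylow p G) (hab : IsMulCommutative (P : Subgroup G))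
    {d : ℕ} (hd : Group.rank (P : Subgroup G) ≤ d)
    (h : ∀ q : ℕ, q.Prime → q ∣ Nat.card G → q ≠ p → ∀ i, 1 ≤ i → i ≤ d → ¬ q ∣ p ^ i - 1) :
    Cfsg.HasNormalPComplement p G := by
  refine Transfer.hasNormalPComplement_of_normalizer_le_centralizer P ?_
  let N := normalizer ((P : Subgroup G) : Set G)
  let φ : N →* MulAut (P : Subgroup G) := (P : Subgroup G).normalizerMonoidHom
  let C := (centralizer ((P : Subgroup G) : Set G)).subgroupOf N
  suffices htop : C = ⊤ from subgroupOf_eq_top.mp htop
  rw [← index_eq_one]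
  refine Nat.eq_one_iff_not_exists_prime_dvd.mpr fun q hq hdvd => ?_
  haveI : Fact q.Prime := ⟨hq⟩
  rcases eq_or_ne q p with rfl | hqp
  · exact (P.subtype (N := N) le_normalizer).not_dvd_index
      (hdvd.trans (index_dvd_of_le fun x hx => P.le_centralizer hx))
  obtain ⟨R⟩ : Nonempty (Sylow q N) := inferInstance
  refine R.not_dvd_index (hdvd.trans (index_dvd_of_le ?_))
  intro r hr
  have hd' : q ∣ Nat.card G :=
    hdvd.trans ((index_dvd_card C).trans (card_subgroup_dvd_card N))
  obtain ⟨b, hb⟩ := R.isPGroup' ⟨r, hr⟩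
  have hb' : r ^ (q ^ b) = 1 := congrArg Subtype.val hb
  have h1 : φ r = 1 := mulAut_eq_one_of_rank P.isPGroup' hq hqp hd (h q hq hd' hqp) (φ r)
    (by rw [← map_pow, hb', map_one])
  refine mem_centralizer_iff.mpr fun x hx => ?_
  have h2 := congrArg Subtype.val (DFunLike.congr_fun h1 ⟨x, hx⟩)
  exact (mul_inv_eq_iff_eq_mul.mp h2).symm

/-- A group whose Sylow subgroups, except for the largest prime, are abelian of rank at most two
and whose order is not divisible by twelve is solvable. -/
theorem isSolvable_of_small_rank (n : ℕ) :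
    ∀ (G : Type u) [Group G] [Finite G], Nat.card G = n →
      (∀ p : ℕ, p.Prime → p ∣ Nat.card G → (∃ q : ℕ, q.Prime ∧ q ∣ Nat.card G ∧ p < q) →
        ∀ P : Sylow p G, IsMulCommutative (P : Subgroup G) ∧ Group.rank (P : Subgroup G) ≤ 2) →
      ¬ 12 ∣ Nat.card G → Group.IsSolvable G := by
  induction n using Nat.strong_induction_on with
  | _ n ih =>
    intro G _ _ hn h h12
    rcases eq_or_ne n 1 with rfl | hn1
    · haveI : Subsingleton G := (Nat.card_eq_one_iff_unique.1 hn).1
      infer_instance
    have hp : (Nat.card G).minFac.Prime := Nat.minFac_prime (hn ▸ hn1)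
    set p := (Nat.card G).minFac
    haveI : Fact p.Prime := ⟨hp⟩
    by_cases hex : ∃ q : ℕ, q.Prime ∧ q ∣ Nat.card G ∧ p < q
    swap
    · have hP : IsPGroup p G := IsPGroup.of_card (n := (Nat.card G).primeFactorsList.length)
        (Nat.eq_prime_pow_of_unique_prime_dvd Nat.card_pos.ne' fun {d} hd hdG =>
          le_antisymm (not_lt.1 fun hlt => hex ⟨d, hd, hdG, hlt⟩)
            (Nat.minFac_le_of_dvd hd.two_le hdG))
      haveI := hP.isNilpotent
      infer_instance
    obtain ⟨P⟩ : Nonempty (Sylow p G) := inferInstance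
    obtain ⟨hab, hrk⟩ := h p hp (Nat.minFac_dvd _) hex P
    have hnpc : Cfsg.HasNormalPComplement p G := by
      haveI : Fintype G := Fintype.ofFinite G
      by_cases h3 : p = 2 ∧ 3 ∣ Nat.card G
      · obtain ⟨h2, h3⟩ := h3
        have h4 : ¬ 2 ^ 2 ∣ Nat.card G := fun h4 => h12
          ((show Nat.Coprime (2 ^ 2) 3 by norm_num).mul_dvd_of_dvd_of_dvd h4 h3)
        have hcard : Nat.card P = p := by
          rw [P.card_eq_multiplicity, h2]
          have h1 : (Nat.card G).factorization 2 < 2 := by
            by_contra hlt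
            exact h4 ((Nat.prime_two.pow_dvd_iff_le_factorization Nat.card_pos.ne').2 (by omega))
          have h0 : 0 < (Nat.card G).factorization 2 :=
            Nat.prime_two.factorization_pos_of_dvd Nat.card_pos.ne' (h2 ▸ Nat.minFac_dvd _)
          rw [show (Nat.card G).factorization 2 = 1 by omega, pow_one]
        haveI : IsCyclic P := isCyclic_of_prime_card hcard
        refine hasNormalPComplement_of_rank P hab (d := 1) (by
          obtain ⟨g, hg⟩ := IsCyclic.exists_generator (α := P)
          refine (Group.rank_le (S := {g}) ?_).trans (by simp)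
          rw [Finset.coe_singleton, ← Subgroup.zpowers_eq_closure, eq_top_iff]
          exact fun x _ => hg x)
          fun q hq _ _ i hi hi' => ?_
        obtain rfl : i = 1 := by omega
        rw [h2]
        exact hq.not_dvd_one
      · refine hasNormalPComplement_of_rank P hab hrk fun q hq hqG hqp i hi hi' hdiv => ?_
        have hpq : p < q := lt_of_le_of_ne (Nat.minFac_le_of_dvd hq.two_le hqG) (Ne.symm hqp)
        have h2 := hp.two_le
        have hfac : q ∣ p - 1 ∨ q ∣ p + 1 := by
          rcases (show i = 1 ∨ i = 2 by omega) with rfl | rfl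
          · exact Or.inl (by simpa using hdiv)
          · have h5 : p ^ 2 - 1 = (p + 1) * (p - 1) := by
              have := Nat.sq_sub_sq p 1
              simpa using this
            rw [h5] at hdiv
            exact (hq.dvd_mul.1 hdiv).symm
        rcases hfac with hl | hr
        · have := Nat.le_of_dvd (by omega) hl
          omega
        · have h6 := Nat.le_of_dvd (by omega) hr
          obtain rfl : q = p + 1 := by omega
          rcases hp.eq_two_or_odd with h7 | h7
          · exact h3 ⟨h7, by rw [h7] at hqG; exact hqG⟩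
          · rcases hq.eq_two_or_odd with h8 | h8 <;> omega
    obtain ⟨P', N, hN, hc⟩ := hnpc
    haveI := hN
    have hmul := hc.card_mul
    have hP1 : 1 < Nat.card P' := Finite.one_lt_card_iff_nontrivial.2
      ((Subgroup.nontrivial_iff_ne_bot _).2 (P'.ne_bot_of_dvd_card (Nat.minFac_dvd _)))
    have hlt : Nat.card N < n := by
      rw [← hn, ← hmul]
      exact (lt_mul_iff_one_lt_right Nat.card_pos).2 hP1
    have hNsol : Group.IsSolvable N := by
      refine ih _ hlt N rfl (fun r hr hrN hex' Q => ?_) fun hd => h12 (hd.trans (card_subgroup_dvd_card N))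
      haveI : Fact r.Prime := ⟨hr⟩
      obtain ⟨s, hs, hsN, hrs⟩ := hex'
      have hrG := hrN.trans (card_subgroup_dvd_card N)
      have hrp : ¬ r ∣ Nat.card P' := by
        intro hd
        obtain ⟨j, hj⟩ := IsPGroup.iff_card.1 P'.isPGroup'
        rw [hj] at hd
        obtain rfl := (Nat.prime_dvd_prime_iff_eq hr hp).1 (hr.dvd_of_dvd_pow hd)
        have h1 := P'.not_dvd_index
        rw [hc.index_eq_card] at h1
        exact h1 hrN
      let Q' : Sylow r G := Sylow.ofCard ((Q : Subgroup N).map N.subtype) (by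
        rw [Subgroup.card_map_of_injective N.subtype_injective, Q.card_eq_multiplicity, ← hmul,
          Nat.factorization_mul Nat.card_pos.ne' Nat.card_pos.ne', Finsupp.add_apply,
          Nat.factorization_eq_zero_of_not_dvd hrp, add_zero])
      obtain ⟨hab', hrk'⟩ := h r hr hrG ⟨s, hs, hsN.trans (card_subgroup_dvd_card N), hrs⟩ Q'
      let e : (Q : Subgroup N) ≃* (Q' : Subgroup G) :=
        Subgroup.equivMapOfInjective _ _ N.subtype_injective
      refine ⟨⟨⟨fun a b => e.injective ?_⟩⟩, ?_⟩
      · rw [map_mul, map_mul]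
        exact hab'.is_comm.comm _ _
      · exact (Group.rank_le_of_surjective e.symm.toMonoidHom e.symm.surjective).trans hrk'
    have hquot : Group.IsSolvable (G ⧸ N) := by
      haveI : IsPGroup p (G ⧸ N) := by
        refine IsPGroup.of_card (n := (Nat.card G).factorization p) ?_
        rw [← Subgroup.index_eq_card, hc.symm.index_eq_card, P'.card_eq_multiplicity]
      haveI := IsPGroup.isNilpotent ‹_›
      infer_instance
    haveI := hNsol
    haveI := hquot
    exact (Group.isSolvable_iff_subgroup_quotient N).2 ⟨hNsol, hquot⟩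

end Cfsg.Agent.FinStruct
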